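import Cfsg.Agent.Lib.Helper31.OTSM.Defs

set_option autoImplicit false

/-!
# OTSM (S5987), package [NUMEV1M]: pure arithmetic (`i` even, `i ≤ m`)
-/

namespace Cfsg.Agent.Lib.Helper65.OTSM

open Cfsg.Agent.Lib.Helper31.OTSM

/-- the basic comparison: `2 (i a + l) + ε ≤ i b + k` with `l, k < i`, `ε ≤ 2` -/
theorem ev_key (i a b l k ε : ℕ) (hi : 2 ≤ i) (hl : l < i) (hk : k < i) (hε : ε ≤ 2) :
    (2 * (i * a + l) + ε ≤ i * b + k) ↔
      (2 * a + 2 ≤ b ∨ (b = 2 * a + 1 ∧ 2 * l + ε ≤ i + k) ∨ (b = 2 * a ∧ 2 * l + ε ≤ k)) := by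
  by_cases h1 : 2 * a + 2 ≤ b
  · have h2 : i * (2 * a + 2) ≤ i * b := Nat.mul_le_mul_left i h1
    have e : i * (2 * a + 2) = 2 * (i * a) + 2 * i := by ring
    constructor
    · intro _
      exact Or.inl h1
    · intro _
      omega
  · by_cases h2 : b = 2 * a + 1
    · subst h2
      have e : i * (2 * a + 1) = 2 * (i * a) + i := by ring
      constructor
      · intro h
        exact Or.inr (Or.inl ⟨rfl, by omega⟩)
      · rintro (h | ⟨-, h⟩ | ⟨h, -⟩) <;> omega
    · by_cases h3 : b = 2 * a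
      · subst h3
        have e : i * (2 * a) = 2 * (i * a) := by ring
        constructor
        · intro h
          exact Or.inr (Or.inr ⟨rfl, by omega⟩)
        · rintro (h | ⟨h, -⟩ | ⟨-, h⟩) <;> omega
      · have h4 : b + 1 ≤ 2 * a := by omega
        have h5 : i * (b + 1) ≤ i * (2 * a) := Nat.mul_le_mul_left i h4
        have e1 : i * (b + 1) = i * b + i := by ring
        have e2 : i * (2 * a) = 2 * (i * a) := by ring
        constructor
        · intro h
          omega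
        · rintro (h | ⟨h, -⟩ | ⟨h, -⟩) <;> omega

theorem eps_eq (j : ℕ) : (if Even j then 2 else 0) = 2 - 2 * (j % 2) := by
  rcases Nat.even_or_odd j with h | h
  · rw [if_pos h, Nat.even_iff.mp h]
  · rw [if_neg (Nat.not_even_iff_odd.mpr h), Nat.odd_iff.mp h]

/-- `CondEvM` in terms of quotients and remainders -/
theorem condEvM_iff (i m d j S M l J k : ℕ) (hi : 2 ≤ i) (hm : i * M + l = m) (hl : l < i)
    (hn : i * J + k = 2 * d) (hk : k < i) (hj : j ≤ J) :
    CondEvM i m d j S ↔ ∃ s, s ≤ S ∧ s ≤ M ∧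
      (2 * (M - s) + 2 ≤ J - j ∨
        (J - j = 2 * (M - s) + 1 ∧ 2 * l + (2 - 2 * (j % 2)) ≤ i + k) ∨
        (J - j = 2 * (M - s) ∧ 2 * l + (2 - 2 * (j % 2)) ≤ k)) := by
  have hε : 2 - 2 * (j % 2) ≤ 2 := by omega
  have hJ : i * (J - j) = i * J - i * j := Nat.mul_sub i J j
  have hij : i * j ≤ i * J := Nat.mul_le_mul_left i hj
  unfold CondEvM
  rw [eps_eq j]
  constructor
  · rintro ⟨s, hs, hsm, hc⟩
    have hsM : s ≤ M := by
      by_contra h
      have h1 : i * (M + 1) ≤ i * s := Nat.mul_le_mul_left i (by omega)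
      have e : i * (M + 1) = i * M + i := by ring
      omega
    have hM : i * (M - s) = i * M - i * s := Nat.mul_sub i M s
    have his : i * s ≤ i * M := Nat.mul_le_mul_left i hsM
    refine ⟨s, hs, hsM, ?_⟩
    rw [← ev_key i (M - s) (J - j) l k _ hi hl hk hε]
    omega
  · rintro ⟨s, hs, hsM, hT⟩
    have hM : i * (M - s) = i * M - i * s := Nat.mul_sub i M s
    have his : i * s ≤ i * M := Nat.mul_le_mul_left i hsM
    rw [← ev_key i (M - s) (J - j) l k _ hi hl hk hε] at hT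
    exact ⟨s, hs, by omega, by omega⟩

/-- [NUMEV1M] -/
theorem pkgNumEv1M : PkgNumEv1M := by
  intro i m d t hie hi2 him hmd ht
  have hipos : 0 < i := by omega
  obtain ⟨M, hM⟩ : ∃ M, m / i = M := ⟨_, rfl⟩
  obtain ⟨l, hl⟩ : ∃ l, m % i = l := ⟨_, rfl⟩
  obtain ⟨J, hJ⟩ : ∃ J, (2 * d) / i = J := ⟨_, rfl⟩
  obtain ⟨k, hk⟩ : ∃ k, (2 * d) % i = k := ⟨_, rfl⟩
  have e1 : i * M + l = m := by rw [← hM, ← hl]; exact Nat.div_add_mod m i
  have e2 : l < i := by rw [← hl]; exact Nat.mod_lt m hipos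
  have e3 : i * J + k = 2 * d := by rw [← hJ, ← hk]; exact Nat.div_add_mod (2 * d) i
  have e4 : k < i := by rw [← hk]; exact Nat.mod_lt _ hipos
  rw [hM, hl, hJ, hk]
  have hk2 : k % 2 = 0 := by
    obtain ⟨c, hc⟩ := hie
    have h1 : i * J = 2 * (c * J) := by rw [hc]; ring
    omega
  have hM1 : 1 ≤ M := by
    by_contra h
    have h0 : M = 0 := by omega
    subst h0
    rw [Nat.mul_zero] at e1
    omega
  have hiM : i ≤ i * M := Nat.le_mul_of_pos_right i hM1
  have hJ2 : 2 ≤ J := by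
    by_contra h
    have h1 : i * J ≤ i * 1 := Nat.mul_le_mul_left i (by omega)
    rw [Nat.mul_one] at h1
    omega
  have hval : ∀ j, i * j ≤ 2 * d → j ≤ J := by
    intro j hj
    by_contra h
    have h1 : i * (J + 1) ≤ i * j := Nat.mul_le_mul_left i (by omega)
    have e : i * (J + 1) = i * J + i := by ring
    omega
  have hJm1 : i * (J - 1) + i = i * J := by
    have h1 : i * (J - 1 + 1) = i * J := by rw [Nat.sub_add_cancel (by omega)]
    rw [Nat.mul_add, Nat.mul_one] at h1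
    exact h1
  have hJm2 : i * (J - 2) + 2 * i = i * J := by
    have h1 : i * (J - 2 + 2) = i * J := by rw [Nat.sub_add_cancel hJ2]
    rw [Nat.mul_add] at h1
    omega
  simp only [Nat.even_iff, Nat.odd_iff]
  constructor
  · intro hAll
    unfold AllEvM at hAll
    -- `j = J - 1`
    have hA1 := hAll (J - 1) (by omega) (by omega) (by intro h; omega)
    rw [condEvM_iff i m d (J - 1) _ M l J k hi2 e1 e2 e3 e4 (by omega)] at hA1
    obtain ⟨s1, hs1, hs1M, hT1⟩ := hA1
    have hR0 : t + 2 * M ≤ J := by omega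
    refine ⟨hR0, ?_⟩
    by_cases hcase : k = 0 ∧ J % 2 = 0
    · -- `j = J - 2`
      have hJ3 : 3 ≤ J := by omega
      have hA2 := hAll (J - 2) (by omega) (by omega) (by intro h; omega)
      rw [condEvM_iff i m d (J - 2) _ M l J k hi2 e1 e2 e3 e4 (by omega)] at hA2
      obtain ⟨s2, hs2, hs2M, hT2⟩ := hA2
      left
      omega
    · -- `j = J`
      have hA0 := hAll J (by omega) (by omega) (by
        intro h
        rw [Nat.odd_iff]
        omega)
      rw [condEvM_iff i m d J _ M l J k hi2 e1 e2 e3 e4 (le_refl J)] at hA0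
      obtain ⟨s0, hs0, hs0M, hT0⟩ := hA0
      right
      omega
  · rintro ⟨hR0, hR⟩
    intro j hj1 hjn hjodd
    have hjJ := hval j hjn
    have hjodd' : j = J → k = 0 → j % 2 = 1 := by
      intro h1 h2
      have h3 := hjodd (by rw [h1]; omega)
      exact Nat.odd_iff.mp h3
    rw [condEvM_iff i m d j _ M l J k hi2 e1 e2 e3 e4 hjJ]
    by_cases hS : (j + 1 - t) / 2 ≤ M
    · exact ⟨(j + 1 - t) / 2, le_refl _, hS, by omega⟩
    · exact ⟨M, by omega, le_refl _, by omega⟩

end Cfsg.Agent.Lib.Helper65.OTSM
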